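import Mathlib
import Cfsg.Agent.Lib.O8Tri.Data

/-!
# The classes of elements of order three of `D₄(3)` and the action of the graph automorphisms on them
-/

set_option autoImplicit false

namespace CfsgLib.O8Tri

open Cfsg Cfsg.Lie CfsgLib.Comput CfsgLib.FiTool CfsgLib.FiLoc CfsgLib.RepChk CfsgLib.Stein CfsgLib.ClSys Matrix
open CfsgLib.Weyl CfsgLib.Chev CfsgLib.ChevAut

/-- the projection of `Ω₈⁺(3)` onto `D₄(3)` -/
noncomputable def pj : Om →* T := (d4Iso (ZMod 3)).symm.toMonoidHom.comp (QuotientGroup.mk' _)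

theorem pj_om8 {r : ℕ} (hr : r < 24) (t : ZMod 3) : pj (om8 (ZMod 3) r t) = xG chevD4 (ZMod 3) r t :=
  (d4Iso (ZMod 3)).symm_apply_eq.2 (d4Iso_xG hr t).symm

theorem pj_surjective : Function.Surjective pj :=
  (d4Iso (ZMod 3)).symm.surjective.comp (QuotientGroup.mk'_surjective _)

theorem eq_of_pj {x y : Om} (hx : x ^ 3 = 1) (hy : y ^ 3 = 1) (h : pj x = pj y) : x = y := by
  have h1 : x⁻¹ * y ∈ Subgroup.center Om := QuotientGroup.eq.1 ((d4Iso (ZMod 3)).symm.injective h)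
  have h2 : (x⁻¹ * y) ^ 3 = 1 := by
    have := (Commute.mul_pow (Subgroup.mem_center_iff.1 h1 x) 3).symm
    rwa [mul_inv_cancel_left, hx, hy, one_mul] at this
  have h3 := (mem_omegaPlusSys (m := 4) (by norm_num) (by norm_num) (x⁻¹ * y)).2.2.1
    ((omegaPlusSys_nondeg _ _).mem_H_of_central (by rw [omegaPlusSys_grp]; trivial)
      fun g _ => (Subgroup.mem_center_iff.1 h1 g).symm)
  have h4 : om8Mat (ZMod 3) (x⁻¹ * y) = diagonal fun i => om8Mat (ZMod 3) (x⁻¹ * y) i i := by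
    ext i j
    by_cases hij : i = j
    · rw [hij, diagonal_apply_eq]
    · rw [diagonal_apply_ne _ hij]; exact h3 i j hij
  have h5 := congrArg (om8Mat (ZMod 3)) h2
  rw [map_pow, h4, diagonal_pow, map_one, ← diagonal_one, diagonal_eq_diagonal_iff] at h5
  rw [← inv_mul_eq_one]
  apply om8Mat_injective
  rw [h4, map_one, ← diagonal_one, diagonal_eq_diagonal_iff]
  exact fun i => (by decide : ∀ a : ZMod 3, a ^ 3 = 1 → a = 1) _ (h5 i)

/-- the letters in `D₄(3)` -/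
noncomputable abbrev aT : ℕ → T := fun m => pj (al m)

theorem holdsT (e : Eqn) (h : eqChk step x0 e = true) : e.Holds aT :=
  (map_evL pj al e.1).symm.trans ((congrArg pj (holds e h)).trans (map_evL pj al e.2))

theorem serT : Ser aT 12 3 := Ser.of_ok holdsT (by norm_num) (by norm_num) ser_ok

theorem exists_sylow : ∃ P : Sylow 3 T, (P : Subgroup T) ≤ pcSub aT 12 0 ∧ Nat.card P = 3 ^ 12 := by
  obtain ⟨P, hP⟩ := ChevAut.exists_sylow (isTw_group (F := ZMod 3) rtOKD4) (stSys_nondeg rtOKD4) 3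
  have hpos : ∀ r : Fin chevD4.nroots, (rootSys rtOKD4).Pos r → 12 ≤ r.1 := fun r hr =>
    (by decide +kernel : ∀ r : Fin chevD4.nroots, (∀ c ∈ (chevD4.coroot.getD r #[]).toList, 0 ≤ c) → 12 ≤ r.1) r
      ((rootSys_pos_iff _ r).1 hr).2
  refine ⟨P, ?_, ?_⟩
  · rw [hP, ← Subgroup.comap_map_eq_self_of_injective (chevD4.group (ZMod 3)).subtype_injective (pcSub aT 12 0)]
    refine Subgroup.comap_mono ((RGD.StSys.UU_le_iff _).2 fun r hr t => ⟨xG chevD4 (ZMod 3) r t, ?_, rfl⟩)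
    obtain ⟨m, hm, e⟩ := (by decide +kernel : ∀ r : Fin chevD4.nroots, 12 ≤ r.1 → ∃ m < 12, nth 0 ws m = r.1 + 1) r
      (hpos r hr)
    have hr : r.1 < 24 := r.2
    have h1 : xG chevD4 (ZMod 3) r 1 ∈ pcSub aT 12 0 := by
      have := mem_pcSub aT (Nat.zero_le m) hm
      change pj (ev b0 (nth 0 ws m)) ∈ _ at this
      rwa [e, ev_letter _ (by omega), b0, Nat.mod_eq_of_lt hr, sgn, if_pos (by omega), pj_om8 hr] at this
    obtain rfl | rfl | rfl := (by decide : ∀ t : ZMod 3, t = 0 ∨ t = 1 ∨ t = 1 + 1) t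
    · rw [xG_zero]; exact Subgroup.one_mem _
    · exact h1
    · rw [xG_add]; exact Subgroup.mul_mem _ h1 h1
  · change Nat.card (P : Subgroup T) = _
    have hle : (stSys rtOKD4 (ZMod 3)).U ≤ chevD4.group (ZMod 3) :=
      (RGD.StSys.UU_le_iff _).2 fun r _ t => xU_mem_group r t
    rw [hP, Nat.card_congr (Subgroup.subgroupOfEquivOfLe hle).toEquiv, (stSys_nondeg rtOKD4).card_U, Nat.card_zmod,
      RGD.ncard_pos_rootSys]
    rfl

/-- the representatives in `Ω₈⁺(3)` -/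
noncomputable abbrev rO (i : ℕ) : Om := lw al reps i

/-- the representatives -/
noncomputable def rT (i : ℕ) : T := pj (rO i)

theorem rT_eq (i : ℕ) : rT i = ev aT (nth 0 reps i) := map_ev pj al _

theorem exists_conj {z : T} (hz : orderOf z = 3) : ∃ i < 13, IsConj z (rT i) := by
  obtain ⟨P, h1, h2⟩ := exists_sylow
  have hz3 : z ^ 3 = 1 := orderOf_dvd_iff_pow_eq_one.1 hz.dvd
  have h3 := (serT.classes Nat.prime_three (h2.ge.trans (Subgroup.card_le_of_le h1)) holdsT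
    (serT.inA_ext holdsT ext_ok) (L := ⊤) (fun _ _ => Subgroup.mem_top _) (fun _ _ => Subgroup.mem_top _) reps
    tree_ok).root
  obtain ⟨Q, hQ⟩ := (IsPGroup.of_card (p := 3) (n := 1) (G := Subgroup.zpowers z)
    (by rw [Nat.card_zpowers, hz, pow_one])).exists_le_sylow
  obtain ⟨x, hx⟩ := MulAction.exists_smul_eq T Q P
  have h4 : x * z * x⁻¹ ∈ (P : Subgroup T) := by
    rw [← hx]; exact ⟨z, hQ (Subgroup.mem_zpowers z), rfl⟩
  obtain ⟨k, -, i, e⟩ := h3 _ (h1 h4) (by rw [conj_pow, hz3, mul_one, mul_inv_cancel])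
  have h5 : IsConj z (rT i) := (isConj_iff.2 ⟨x, rfl⟩).trans (isConj_iff.2 ⟨k, e.trans (rT_eq i).symm⟩)
  refine ⟨i, ?_, h5⟩
  by_contra h
  rw [rT_eq, nth_of_le _ _ (not_lt.1 h), ev_zero, isConj_one_left] at h5
  rw [h5, orderOf_one] at hz
  omega

theorem rO_cube {i : ℕ} (hi : i < 13) : rO i ^ 3 = 1 := by
  have : evL al _ = evL al [] := holds _ (cube_ok i hi)
  rwa [evL_three, ← pow_three'] at this

theorem rT_real {i : ℕ} (hi : i < 13) : IsConj (rT i * rT i) (rT i) := by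
  have : evL aT _ = evL aT _ := holdsT _ (invs_ok i hi)
  rw [evL_three, evL_two, ← rT_eq, mul_assoc] at this
  exact isConj_iff.2 ⟨_, mul_inv_eq_iff_eq_mul.2 this⟩

/-! ### the action of the graph automorphisms -/

theorem map_ev_lw {O X : Type*} [Group O] [Group X] (φ : O →* X) (θ : MulAut X) {b b' : ℕ → O}
    (h : ∀ m, θ (φ (b m)) = φ (b' m)) (us : List ℕ) (w : ℕ) : θ (φ (ev (lw b us) w)) = φ (ev (lw b' us) w) := by
  have key : ∀ {b b' : ℕ → O}, (∀ m, θ (φ (b m)) = φ (b' m)) → ∀ w, θ (φ (ev b w)) = φ (ev b' w) := by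
    intro b b' h w
    rw [map_ev, map_ev]
    exact (map_ev θ.toMonoidHom _ _).trans (congrArg (fun g => ev g w) (funext h))
  exact key (fun m => key h _) w

theorem aut_b0 {θ : MulAut T} {ρ : ℕ → ℕ} {ε : ℕ → ℤ}
    (h : ∀ r < 24, ∀ t, θ (xG chevD4 (ZMod 3) r t) = xG chevD4 (ZMod 3) (ρ r) (ε r * t))
    (h1 : ∀ m < 48, ρ (m % 24) < 24 ∧ sgn (sig ρ ε m) = ε (m % 24) * sgn m) (m : ℕ) :
    θ (pj (b0 m)) = pj (b0 (sig ρ ε m)) := by
  obtain ⟨h4, h5⟩ := h1 (m % 48) (Nat.mod_lt _ (by norm_num))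
  have h6 : sgn (m % 48) = sgn m := by rw [sgn, sgn, Nat.mod_mod]
  have h7 : sig ρ ε (m % 48) = sig ρ ε m := by rw [sig, sig, h6, Nat.mod_mod_of_dvd _ (by norm_num : 24 ∣ 48)]
  rw [Nat.mod_mod_of_dvd _ (by norm_num : 24 ∣ 48)] at h4 h5
  rw [h7, h6] at h5
  have h8 : sig ρ ε m % 24 = ρ (m % 24) := by
    rw [sig]
    split_ifs <;> omega
  rw [b0, b0, pj_om8 (Nat.mod_lt _ (by norm_num)), pj_om8 (Nat.mod_lt _ (by norm_num)),
    h _ (Nat.mod_lt _ (by norm_num)), h5, h8]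

theorem autChk_sound {σ : ℕ → ℕ} {i : ℕ} {e : ℕ × ℕ} (h : autChk σ i e = true) :
    ev al e.2 * ev (lw (fun m => b0 (σ m)) ws) (nth 0 reps i) = rO e.1 * ev al e.2 := by
  have s1 := act_rel St.step e.2 (act_rel (g := lw (fun m => b0 (σ m)) ws) (step := stepW (fun m => step0 (σ m)) ws)
    (fun m x a hx => act_rel (fun m => St.step0 (σ m)) _ hx) (nth 0 reps i) St.one)
  have s2 := actL_rel St.step [nth 0 reps e.1, e.2] St.one
  rw [Nat.eq_of_beq_eq_true h] at s1
  have h4 := s1.unique s2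
  rwa [mul_one, mul_one, evL_two] at h4

theorem aut_conj {θ : MulAut T} {σ : ℕ → ℕ} (h : ∀ m, θ (pj (b0 m)) = pj (b0 (σ m))) {i : ℕ} {e : ℕ × ℕ}
    (h2 : autChk σ i e = true) : IsConj (θ (rT i)) (rT e.1) := by
  have h4 := congrArg pj (autChk_sound h2)
  rw [map_mul, map_mul, ← map_ev_lw pj θ h] at h4
  exact isConj_iff.2 ⟨_, mul_inv_eq_iff_eq_mul.2 h4⟩

/-- the permutation of the classes induced by triality -/
noncomputable def pT (i : ℕ) : ℕ := (nth (0, 0) taus i).1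

/-- the permutation of the classes induced by the graph automorphism of order two -/
noncomputable def pR (i : ℕ) : ℕ := (nth (0, 0) rhos i).1

theorem tau_rT {i : ℕ} (hi : i < 13) : IsConj (tau (rT i)) (rT (pT i)) :=
  aut_conj (aut_b0 (fun _ hr => tau_x hr) (by decide +kernel)) (taus_ok i hi)

theorem rho_rT {i : ℕ} (hi : i < 13) : IsConj (rho (rT i)) (rT (pR i)) :=
  aut_conj (aut_b0 (fun _ hr => rho_x hr) (by decide +kernel)) (rhos_ok i hi)

/-! ### invariants -/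

/-- three properties of a function on an additive group -/
def inv3 {V : Type} [Add V] (f : V → ZMod 3) : Prop × Prop × Prop :=
  (∃ v, f v = 1, ∃ v, f v = 2, ∃ v w, f v = 0 ∧ f (v + w) ≠ f w)

theorem inv3_comp {V W : Type} [Add V] [Add W] {φ : V → W} (ha : ∀ v w, φ (v + w) = φ v + φ w)
    (hs : Function.Surjective φ) (g : W → ZMod 3) : inv3 (fun v => g (φ v)) = inv3 g := by
  simp only [inv3, hs.exists, ha]

/-- the form attached to an element -/
def qf (g : Om) (v : II 4 → ZMod 3) : ZMod 3 := quadFormPlus 4 (ZMod 3) ((om8Mat (ZMod 3) g - 1) *ᵥ v)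

theorem inv3_conj (k g : Om) : inv3 (qf (k * g * k⁻¹)) = inv3 (qf g) := by
  have hk : ∀ u, quadFormPlus 4 (ZMod 3) (om8Mat (ZMod 3) k *ᵥ u) = quadFormPlus 4 (ZMod 3) u := fun u => k.1.2 u 0
  have h : qf (k * g * k⁻¹) = fun v => qf g (om8Mat (ZMod 3) k⁻¹ *ᵥ v) := by
    funext v
    rw [qf, qf, ← hk ((om8Mat (ZMod 3) g - 1) *ᵥ (om8Mat (ZMod 3) k⁻¹ *ᵥ v)), mulVec_mulVec, mulVec_mulVec, mul_sub,
      sub_mul, mul_one, ← map_mul, ← map_mul, ← map_mul, mul_inv_cancel, map_one]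
  rw [h]
  exact inv3_comp (fun _ _ => mulVec_add _ _ _)
    (fun v => ⟨om8Mat (ZMod 3) k *ᵥ v, by rw [mulVec_mulVec, ← map_mul, inv_mul_cancel, map_one, one_mulVec]⟩) _

/-- a binary form -/
def bq (c c' : ZMod 3) (p : ZMod 3 × ZMod 3) : ZMod 3 := c * p.1 ^ 2 + c' * p.2 ^ 2

theorem quad_eq {R κ ι : Type*} [CommRing R] [Fintype κ] [Fintype ι] {N N' : κ → ι → R} {c c' : R} {l l' : ι → R}
    (h : ∀ a b, ∑ i, N i a * N' i b + ∑ i, N i b * N' i a = 2 * (c * l a * l b + c' * l' a * l' b)) (v : ι → R) :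
    2 * ∑ i, (N i ⬝ᵥ v) * (N' i ⬝ᵥ v) = 2 * (c * (l ⬝ᵥ v) ^ 2 + c' * (l' ⬝ᵥ v) ^ 2) := by
  have h1 : ∑ i, (N i ⬝ᵥ v) * (N' i ⬝ᵥ v) = ∑ a, ∑ b, (∑ i, N i a * N' i b) * v a * v b := by
    simp only [dotProduct, Finset.sum_mul_sum]
    rw [Finset.sum_comm]
    refine Finset.sum_congr rfl fun a _ => Finset.sum_comm.trans (Finset.sum_congr rfl fun b _ => ?_)
    rw [Finset.sum_mul, Finset.sum_mul]
    exact Finset.sum_congr rfl fun i _ => by ring
  have h2 : ∑ a, ∑ b, (∑ i, N i a * N' i b) * v a * v b = ∑ a, ∑ b, (∑ i, N i b * N' i a) * v a * v b := by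
    rw [Finset.sum_comm]
    exact Finset.sum_congr rfl fun a _ => Finset.sum_congr rfl fun b _ => by ring
  rw [two_mul, h1]
  nth_rewrite 2 [h2]
  simp only [← Finset.sum_add_distrib, ← add_mul, h, dotProduct, pow_two]
  rw [Finset.sum_mul_sum, Finset.sum_mul_sum]
  simp only [Finset.mul_sum, ← Finset.sum_add_distrib]
  exact Finset.sum_congr rfl fun a _ => Finset.sum_congr rfl fun b _ => by ring

theorem qChk_sound {w : ℕ} {e : ZMod 3 × ZMod 3 × ℕ × ℕ × ℕ × ℕ} (h : qChk w e = true) :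
    inv3 (qf (ev al w)) = inv3 (bq e.1 e.2.1) ∧ ev al w ≠ 1 := by
  rw [qChk, Comput.force_eq, decide_eq_true_eq] at h
  obtain ⟨h1, h2, h3, h4, h5, a, b, h6, h7⟩ := h
  have s := act_rel St.step w St.one
  rw [mul_one] at s
  have hn : om8Mat (ZMod 3) (ev al w) - 1 = Matrix.of (nm (act step w x0)) := by
    ext a b
    rw [Matrix.sub_apply, s.2, one_apply, of_apply, nm]
  refine ⟨?_, fun h8 => h6 ?_⟩
  · have h9 : qf (ev al w) = fun v => bq e.1 e.2.1 (vec e.2.2.1 ⬝ᵥ v, vec e.2.2.2.1 ⬝ᵥ v) := by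
      funext v
      rw [qf, hn]
      exact (by decide : ∀ x y : ZMod 3, 2 * x = 2 * y → x = y) _ _ (quad_eq h1 v)
    rw [h9]
    refine inv3_comp (φ := fun v => (vec e.2.2.1 ⬝ᵥ v, vec e.2.2.2.1 ⬝ᵥ v)) (fun _ _ => ?_) (fun p =>
      ⟨p.1 • vec e.2.2.2.2.1 + p.2 • vec e.2.2.2.2.2, ?_⟩) _
    · rw [dotProduct_add, dotProduct_add]; rfl
    · simp only [dotProduct_add, dotProduct_smul, h2, h3, h4, h5, smul_eq_mul, mul_one, mul_zero, add_zero, zero_add]
  · rw [h8, map_one, sub_self] at hn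
    exact (congrFun (congrFun hn a) b).symm

/-- the invariants of a binary form -/
def invB (c c' : ZMod 3) : Bool × Bool × Bool :=
  (decide (∃ v, bq c c' v = 1), decide (∃ v, bq c c' v = 2), decide (∃ v w, bq c c' v = 0 ∧ bq c c' (v + w) ≠ bq c c' w))

/-- the invariants of the representatives -/
def code (i : ℕ) : Bool × Bool × Bool := ([(false, false, false), (false, false, false), (false, false, false),
  (true, false, false), (false, false, false), (true, true, true), (false, false, false), (false, true, false),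
  (true, false, false), (true, false, false), (false, true, false), (false, true, false), (true, true, false)]).getD i
  (false, false, false)

theorem code_eq {i j : ℕ} (hi : i < 13) (hj : j < 13) (h : IsConj (rT i) (rT j)) : code i = code j := by
  have hc : ∀ i < 13, code i = invB (nth (0, 0, 0, 0, 0, 0) qs i).1 (nth (0, 0, 0, 0, 0, 0) qs i).2.1 := by
    decide +kernel
  obtain ⟨k, hk⟩ := isConj_iff.1 h
  obtain ⟨k, rfl⟩ := pj_surjective k
  rw [rT, rT, ← map_inv, ← map_mul, ← map_mul] at hk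
  have h1 := inv3_conj k (rO i)
  rw [eq_of_pj (by rw [conj_pow, rO_cube hi, mul_one, mul_inv_cancel]) (rO_cube hj) hk,
    (qChk_sound (qs_ok i hi)).1, (qChk_sound (qs_ok j hj)).1] at h1
  simp only [inv3, Prod.mk.injEq, eq_iff_iff] at h1
  rw [hc i hi, hc j hj]
  simp only [invB, Prod.mk.injEq, decide_eq_decide]
  exact ⟨h1.1.symm, h1.2.1.symm, h1.2.2.symm⟩

theorem orderOf_rT {i : ℕ} (hi : i < 13) : orderOf (rT i) = 3 :=
  orderOf_eq_prime (by rw [rT, ← map_pow, rO_cube hi, map_one]) fun h =>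
    (qChk_sound (qs_ok i hi)).2 (eq_of_pj (rO_cube hi) (one_pow 3) (h.trans (map_one pj).symm))

theorem pT_lt : ∀ i < 13, pT i < 13 := by decide +kernel

set_option synthInstance.maxSize 1000 in
theorem sep {i j : ℕ} (hi : i < 13) (hj : j < 13) (h : IsConj (rT i) (rT j)) : i = j := by
  have key : ∀ {i j : ℕ}, i < 13 → j < 13 → IsConj (rT i) (rT j) → IsConj (rT (pT i)) (rT (pT j)) :=
    fun hi hj h => (tau_rT hi).symm.trans ((tau.toMonoidHom.map_isConj h).trans (tau_rT hj))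
  have h1 := key hi hj h
  have h2 := key (pT_lt i hi) (pT_lt j hj) h1
  exact (by decide +kernel : ∀ i < 13, ∀ j < 13, code i = code j → code (pT i) = code (pT j) →
    code (pT (pT i)) = code (pT (pT j)) → i = j) i hi j hj (code_eq hi hj h)
    (code_eq (pT_lt i hi) (pT_lt j hj) h1) (code_eq (pT_lt _ (pT_lt i hi)) (pT_lt _ (pT_lt j hj)) h2)

/-- the orbit of a class under the graph automorphisms -/
def orb (i : ℕ) : Fin 7 := [0, 1, 1, 2, 2, 3, 2, 1, 4, 5, 4, 4, 6].getD i 0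

/-- representatives of the orbits -/
def sec (k : Fin 7) : ℕ := [0, 1, 3, 5, 8, 9, 12].getD k 0

theorem sec_lt : ∀ k, sec k < 13 := by decide

/-- the automorphisms preserving the orbits -/
def Pres : Subgroup (MulAut T) where
  carrier := {θ | ∀ i < 13, ∀ j < 13, IsConj (θ (rT i)) (rT j) → orb i = orb j}
  one_mem' i hi j hj h := by rw [sep hi hj h]
  mul_mem' {θ θ'} h h' i hi k hk e := by
    obtain ⟨j, hj, e'⟩ := exists_conj (z := θ' (rT i)) (by rw [MulEquiv.orderOf_eq, orderOf_rT hi])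
    exact (h' i hi j hj e').trans (h j hj k hk ((θ.toMonoidHom.map_isConj e').symm.trans e))
  inv_mem' {θ} h i hi j hj e := by
    have := θ.toMonoidHom.map_isConj e
    exact (h j hj i hi (by simpa using this.symm)).symm

theorem Gam_le : Gam ≤ Pres := by
  refine sup_le ((Subgroup.closure_le _).2 ?_) ?_
  · rintro θ (h | h) i hi j hj e <;> rw [h] at e
    · rw [← sep (pT_lt i hi) hj ((tau_rT hi).symm.trans e)]
      exact (by decide +kernel : ∀ i < 13, orb i = orb (pT i)) i hi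
    · have h1 := (by decide +kernel : ∀ i < 13, pR i < 13 ∧ orb i = orb (pR i)) i hi
      rw [← sep h1.1 hj ((rho_rT hi).symm.trans e)]
      exact h1.2
  · rintro _ ⟨g, rfl⟩ i hi j hj e
    rw [sep hi hj ((isConj_iff.2 ⟨g, rfl⟩).trans e)]

theorem isConj_of_mem {z : T} (hz : orderOf z = 3) {j : ℕ} (hj : j < 13) (h : z ∈ Subgroup.zpowers (rT j)) :
    IsConj z (rT j) := by
  rw [mem_zpowers_iff_mem_range_orderOf, orderOf_rT hj, Finset.mem_image] at h
  obtain ⟨k, hk, rfl⟩ := h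
  have := Finset.mem_range.1 hk
  interval_cases k
  · simp at hz
  · rw [pow_one]
  · rw [pow_two]; exact rT_real hj

theorem sep_Gam {θ : MulAut T} (hθ : θ ∈ Gam) {k l : Fin 7} (h : θ (rT (sec k)) ∈ Subgroup.zpowers (rT (sec l))) :
    k = l := by
  have := Gam_le hθ _ (sec_lt k) _ (sec_lt l)
    (isConj_of_mem (by rw [MulEquiv.orderOf_eq, orderOf_rT (sec_lt k)]) (sec_lt l) h)
  rwa [(by decide : ∀ k, orb (sec k) = k) k, (by decide : ∀ k, orb (sec k) = k) l] at this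

theorem exists_Gam {z : T} (hz : orderOf z = 3) : ∃ k, ∃ θ ∈ Gam, θ z = rT (sec k) := by
  have ht : tau ∈ Gam := Subgroup.mem_sup_left (Subgroup.subset_closure (by simp))
  have key : ∀ θ ∈ Gam, ∀ k, IsConj (θ z) (rT (sec k)) → ∃ k, ∃ θ ∈ Gam, θ z = rT (sec k) := by
    intro θ hθ k h
    obtain ⟨g, hg⟩ := isConj_iff.1 h
    exact ⟨k, MulAut.conj g * θ, Subgroup.mul_mem _ (Subgroup.mem_sup_right ⟨g, rfl⟩) hθ, hg⟩
  obtain ⟨i, hi, e⟩ := exists_conj hz
  have e1 := (tau.toMonoidHom.map_isConj e).trans (tau_rT hi)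
  have e2 := (tau.toMonoidHom.map_isConj e1).trans (tau_rT (pT_lt i hi))
  obtain ⟨k, h | h | h⟩ := (by decide +kernel : ∀ i < 13, ∃ k, i = sec k ∨ pT i = sec k ∨ pT (pT i) = sec k) i hi
  · exact key 1 (Subgroup.one_mem _) k (h ▸ e)
  · exact key tau ht k (h ▸ e1)
  · exact key (tau * tau) (Subgroup.mul_mem _ ht ht) k (h ▸ e2)

end CfsgLib.O8Tri
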