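import Mathlib
import Cfsg.Agent.Lib.Comput.Word

/-!
# Matrices of size at most eight over the field with three elements, as pairs of bit planes
-/

set_option autoImplicit false

namespace CfsgLib.O8Tri

open CfsgLib.Comput Matrix

/-- row `j` of the plane `y`, moved to row `i` -/
noncomputable def rowTo (i j y : ℕ) : ℕ :=
  Nat.shiftLeft (Nat.land (Nat.shiftRight y (Nat.mul 8 j)) 255) (Nat.mul 8 i)

/-- add row `j` (its negative if `s ≠ 0`) to row `i` -/
noncomputable def radd (i j s x : ℕ) : ℕ :=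
  force (Nat.land x 18446744073709551615) fun p => force (Nat.shiftRight x 64) fun n =>
  force (rowTo i j (Nat.rec p (fun _ _ => n) s)) fun p2 => force (rowTo i j (Nat.rec n (fun _ _ => p) s)) fun n2 =>
  force (Nat.xor (Nat.lor p n2) (Nat.lor n p2)) fun t =>
  Nat.lor (Nat.xor (Nat.lor n n2) t) (Nat.shiftLeft (Nat.xor (Nat.lor p p2) t) 64)

/-- the value of a pair of bits -/
def val3 (p n : Bool) : ZMod 3 := if p then 1 else if n then -1 else 0

/-- the entry in position `k` -/
def ent (x k : ℕ) : ZMod 3 := val3 (x.testBit k) (x.testBit (64 + k))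

/-- normalised states -/
def good (x : ℕ) : Prop := (∀ k, 128 ≤ k → x.testBit k = false) ∧ ∀ k < 64, (x.testBit k && x.testBit (64 + k)) = false

theorem testBit_rowTo (i j y k : ℕ) :
    (rowTo i j y).testBit k = (decide (k / 8 = i) && y.testBit (8 * j + k % 8)) := by
  change (((y >>> (8 * j)) &&& (2 ^ 8 - 1)) <<< (8 * i)).testBit k = _
  rw [Nat.testBit_shiftLeft, Nat.testBit_and, Nat.testBit_shiftRight, Nat.testBit_two_pow_sub_one]
  by_cases h : k / 8 = i
  · rw [show k - 8 * i = k % 8 by omega, decide_eq_true (show k ≥ 8 * i by omega), decide_eq_true h,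
      decide_eq_true (show k % 8 < 8 by omega), Bool.and_true]
  · rw [decide_eq_false h, Bool.false_and]
    by_cases h1 : k ≥ 8 * i
    · rw [decide_eq_false (show ¬ k - 8 * i < 8 by omega), Bool.and_false, Bool.and_false]
    · rw [decide_eq_false h1, Bool.false_and]

theorem add3 : ∀ p n p2 n2 : Bool, (p && n) = false → (p2 && n2) = false →
    ((((n || n2) ^^ ((p || n2) ^^ (n || p2))) && ((p || p2) ^^ ((p || n2) ^^ (n || p2)))) = false ∧
    val3 ((n || n2) ^^ ((p || n2) ^^ (n || p2))) ((p || p2) ^^ ((p || n2) ^^ (n || p2))) = val3 p n + val3 p2 n2) := by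
  decide

theorem val3_swap : ∀ p n : Bool, (p && n) = false → val3 n p = -val3 p n := by decide

theorem plane_add {p n p2 n2 : ℕ} (h : ∀ k, 64 ≤ k → p.testBit k = false ∧ n.testBit k = false ∧
      p2.testBit k = false ∧ n2.testBit k = false)
    (h1 : ∀ k < 64, (p.testBit k && n.testBit k) = false ∧ (p2.testBit k && n2.testBit k) = false) :
    good (((n ||| n2) ^^^ ((p ||| n2) ^^^ (n ||| p2))) ||| (((p ||| p2) ^^^ ((p ||| n2) ^^^ (n ||| p2))) <<< 64)) ∧
    ∀ k < 64, ent (((n ||| n2) ^^^ ((p ||| n2) ^^^ (n ||| p2))) |||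
      (((p ||| p2) ^^^ ((p ||| n2) ^^^ (n ||| p2))) <<< 64)) k =
      val3 (p.testBit k) (n.testBit k) + val3 (p2.testBit k) (n2.testBit k) := by
  set y := ((n ||| n2) ^^^ ((p ||| n2) ^^^ (n ||| p2))) ||| (((p ||| p2) ^^^ ((p ||| n2) ^^^ (n ||| p2))) <<< 64)
    with hy
  have lo : ∀ k < 64, y.testBit k =
      ((n.testBit k || n2.testBit k) ^^ ((p.testBit k || n2.testBit k) ^^ (n.testBit k || p2.testBit k))) := by
    intro k hk
    simp only [hy, Nat.testBit_or, Nat.testBit_xor, Nat.testBit_shiftLeft, decide_eq_false (show ¬ k ≥ 64 by omega),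
      Bool.false_and, Bool.or_false]
  have hi : ∀ k, y.testBit (64 + k) =
      ((p.testBit k || p2.testBit k) ^^ ((p.testBit k || n2.testBit k) ^^ (n.testBit k || p2.testBit k))) := by
    intro k
    obtain ⟨a, b, c, d⟩ := h (64 + k) (by omega)
    simp only [hy, Nat.testBit_or, Nat.testBit_xor, Nat.testBit_shiftLeft, decide_eq_true (show 64 + k ≥ 64 by omega),
      a, b, c, d, Nat.add_sub_cancel_left, Bool.true_and, Bool.or_false, Bool.false_or, Bool.xor_false]
  refine ⟨⟨fun k hk => ?_, fun k hk => ?_⟩, fun k hk => ?_⟩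
  · obtain ⟨a, b, c, d⟩ := h (k - 64) (by omega)
    rw [show k = 64 + (k - 64) by omega, hi, a, b, c, d]; rfl
  · rw [lo k hk, hi]; exact (add3 _ _ _ _ (h1 k hk).1 (h1 k hk).2).1
  · rw [ent, lo k hk, hi]; exact (add3 _ _ _ _ (h1 k hk).1 (h1 k hk).2).2

theorem radd_spec {i j s x : ℕ} (hi : i < 8) (hj : j < 8) (hx : good x) : good (radd i j s x) ∧
    ∀ k < 64, ent (radd i j s x) k =
      ent x k + if k / 8 = i then (if s = 0 then 1 else -1) * ent x (8 * j + k % 8) else 0 := by
  have hp : ∀ k, (x &&& 18446744073709551615).testBit k = (x.testBit k && decide (k < 64)) := fun k => by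
    rw [Nat.testBit_and, ← Nat.testBit_two_pow_sub_one]
  have hn : ∀ k, (x >>> 64).testBit k = x.testBit (64 + k) := fun k => Nat.testBit_shiftRight _
  have key : ∀ a b : ℕ, (∀ k < 64, (a.testBit k && b.testBit k) = false) →
      (∀ k, 64 ≤ k → (x &&& 18446744073709551615).testBit k = false ∧ (x >>> 64).testBit k = false ∧
        (rowTo i j a).testBit k = false ∧ (rowTo i j b).testBit k = false) ∧
      ∀ k < 64, ((x &&& 18446744073709551615).testBit k && (x >>> 64).testBit k) = false ∧
        ((rowTo i j a).testBit k && (rowTo i j b).testBit k) = false := by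
    intro a b hab
    refine ⟨fun k hk => ?_, fun k hk => ⟨?_, ?_⟩⟩
    · rw [hp, hn, testBit_rowTo, testBit_rowTo, decide_eq_false (show ¬ k < 64 by omega),
        decide_eq_false (show ¬ k / 8 = i by omega), hx.1 _ (show 128 ≤ 64 + k by omega)]
      simp
    · rw [hp, hn, decide_eq_true hk, Bool.and_true]; exact hx.2 k hk
    · rw [testBit_rowTo, testBit_rowTo]
      cases decide (k / 8 = i)
      · rfl
      · exact hab _ (by omega)
  have h0 : ∀ k < 64, ((x &&& 18446744073709551615).testBit k && (x >>> 64).testBit k) = false := fun k hk => by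
    rw [hp, hn, decide_eq_true hk, Bool.and_true]; exact hx.2 k hk
  simp only [radd, force_eq]
  cases s with
  | zero =>
    obtain ⟨h1, h2⟩ := key _ _ h0
    refine ⟨(plane_add h1 h2).1, fun k hk => ((plane_add h1 h2).2 k hk).trans ?_⟩
    rw [testBit_rowTo, testBit_rowTo, hp, hp, hn, hn, decide_eq_true hk,
      decide_eq_true (show 8 * j + k % 8 < 64 by omega), Bool.and_true, Bool.and_true]
    by_cases h : k / 8 = i <;> simp [h, ent, val3]
  | succ s =>
    obtain ⟨h1, h2⟩ := key (x >>> 64) (x &&& 18446744073709551615) fun k hk => by rw [Bool.and_comm]; exact h0 k hk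
    refine ⟨(plane_add h1 h2).1, fun k hk => ((plane_add h1 h2).2 k hk).trans ?_⟩
    rw [testBit_rowTo, testBit_rowTo, hp, hp, hn, hn, decide_eq_true hk,
      decide_eq_true (show 8 * j + k % 8 < 64 by omega), Bool.and_true, Bool.and_true]
    by_cases h : k / 8 = i
    · rw [decide_eq_true h, Bool.true_and, Bool.true_and, val3_swap _ _ (hx.2 _ (by omega))]
      simp [h, ent]
    · simp [h, ent, val3]

variable {ι : Type*} [Fintype ι] [DecidableEq ι] {ix : ι → ℕ}

/-- the state `x` represents the matrix `A` -/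
def St3 (ix : ι → ℕ) (x : ℕ) (A : Matrix ι ι (ZMod 3)) : Prop := good x ∧ ∀ a b, A a b = ent x (8 * ix a + ix b)

omit [Fintype ι] [DecidableEq ι] in
theorem St3.unique {x : ℕ} {A B : Matrix ι ι (ZMod 3)} (h : St3 ix x A) (h' : St3 ix x B) : A = B :=
  Matrix.ext fun a b => (h.2 a b).trans (h'.2 a b).symm

theorem St3.radd (hl : ∀ a, ix a < 8) (hi : Function.Injective ix) {x : ℕ} {A : Matrix ι ι (ZMod 3)}
    (h : St3 ix x A) (a b : ι) (s : ℕ) :
    St3 ix (radd (ix a) (ix b) s x) ((1 + single a b (if s = 0 then 1 else -1)) * A) := by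
  obtain ⟨h1, h2⟩ := radd_spec (s := s) (hl a) (hl b) h.1
  refine ⟨h1, fun c d => ?_⟩
  have := hl c
  have := hl d
  rw [h2 _ (by omega), show (8 * ix c + ix d) / 8 = ix c by omega, show (8 * ix c + ix d) % 8 = ix d by omega,
    ← h.2, ← h.2, add_mul, one_mul, Matrix.add_apply]
  by_cases hc : c = a
  · rw [hc, if_pos rfl, single_mul_apply_same]
  · rw [if_neg (hi.ne hc), single_mul_apply_of_ne _ _ _ _ _ hc]

end CfsgLib.O8Tri
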