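import Mathlib
import Cfsg.Agent.Lib.ChevAut.Out
import Cfsg.Agent.Lib.RepChk.D4
import Cfsg.Agent.Lib.Comp.FStar

/-!
# Extensions of `D₄(3)` by the symmetric group of degree three

All subgroups of `Out D₄(3)` isomorphic to `S₃` are conjugate to the group of graph automorphisms.
-/

set_option autoImplicit false

namespace CfsgLib.O8Tri

open Cfsg Cfsg.Lie CfsgLib.Stein CfsgLib.Weyl CfsgLib.Chev CfsgLib.ChevAut Subgroup

section abstract
variable {O : Type*} [Group O] [Finite O] {V : Subgroup O} {t : O}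

theorem card_normalizer_le [V.Normal] (h6 : V.index = 6) (h2 : ∀ v ∈ V, v * v = 1) (ht : t ^ 3 = 1)
    (hc : ∀ v ∈ V, Commute v t → v = 1) : Nat.card (normalizer (zpowers t : Set O)) ≤ 6 := by
  rw [← h6]
  refine Nat.card_le_card_of_injective ((QuotientGroup.mk' V).comp (normalizer (zpowers t : Set O)).subtype) ?_
  rw [injective_iff_map_eq_one]
  rintro ⟨v, hv⟩ h
  have hV : v ∈ V := (QuotientGroup.eq_one_iff v).1 h
  refine Subtype.ext (hc v hV ?_)
  have h1 : v * t * v⁻¹ * t⁻¹ ∈ zpowers t :=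
    mul_mem ((mem_normalizer_iff.1 hv t).1 (mem_zpowers t)) (inv_mem (mem_zpowers t))
  have h3 : v * t * v⁻¹ * t⁻¹ ∈ V := by
    have := V.mul_mem hV (‹V.Normal›.conj_mem _ (V.inv_mem hV) t)
    rwa [← mul_assoc, ← mul_assoc] at this
  have h4 : (v * t * v⁻¹ * t⁻¹) ^ 3 = 1 := by
    obtain ⟨k, hk⟩ := h1
    rw [← hk, ← zpow_natCast, ← zpow_mul, mul_comm, zpow_mul, zpow_natCast, ht, one_zpow]
  rw [pow_three', h2 _ h3, one_mul, mul_inv_eq_one, mul_inv_eq_iff_eq_mul] at h4
  exact h4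

theorem exists_conj_normalizer [V.Normal] (h6 : V.index = 6) (h2 : ∀ v ∈ V, v * v = 1) (ht : orderOf t = 3)
    (hc : ∀ v ∈ V, Commute v t → v = 1) {K : Subgroup O} (e : K ≃* Equiv.Perm (Fin 3)) :
    ∃ g : O, K.map (MulAut.conj g).toMonoidHom = normalizer (zpowers t : Set O) := by
  have : Fact (Nat.Prime 3) := ⟨Nat.prime_three⟩
  have hf : (Nat.card O).factorization 3 = 1 := by
    obtain ⟨k, hk⟩ := (IsPGroup.iff_card (p := 2) (G := V)).1 fun v =>
      ⟨1, Subtype.ext (by simpa [pow_two] using h2 v v.2)⟩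
    rw [← V.card_mul_index, hk, h6, Nat.factorization_mul (by positivity) (by norm_num), Finsupp.add_apply,
      Nat.factorization_pow, Finsupp.smul_apply, Nat.factorization_eq_zero_of_not_dvd (by norm_num),
      show 6 = 3 ^ 1 * 2 by norm_num, Nat.factorization_mul (by norm_num) (by norm_num), Finsupp.add_apply,
      Nat.prime_three.factorization_pow, Nat.factorization_eq_zero_of_not_dvd (by norm_num)]
    simp
  set a : K := e.symm (finRotate 3) with ha
  have hoa : orderOf (a : O) = 3 := by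
    rw [orderOf_coe, ha, MulEquiv.orderOf_eq]
    exact orderOf_eq_prime (by decide) (by decide)
  obtain ⟨g, hg⟩ := MulAction.exists_smul_eq O (Sylow.ofCard (p := 3) (zpowers (a : O))
    (by rw [Nat.card_zpowers, hoa, hf]; rfl)) (Sylow.ofCard (zpowers t) (by rw [Nat.card_zpowers, ht, hf]; rfl))
  have hg' : (zpowers (a : O)).map (MulAut.conj g).toMonoidHom = zpowers t :=
    congrArg (fun S : Sylow 3 O => (S : Subgroup O)) hg
  refine ⟨g, eq_of_le_of_card_ge ?_ ?_⟩
  · rw [← hg']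
    refine le_trans (map_mono ?_) (le_normalizer_map _)
    intro k hk
    refine mem_normalizer_fintype ?_
    rintro _ ⟨n, rfl⟩
    have h1 : k * a * k⁻¹ ∈ zpowers (a : O) := by
      have h3 : ∀ x : Equiv.Perm (Fin 3), x * finRotate 3 * x⁻¹ = finRotate 3 ∨
        x * finRotate 3 * x⁻¹ = finRotate 3 * finRotate 3 := by decide
      rcases h3 (e ⟨k, hk⟩) with h | h
      · have := congrArg (fun y => (e.symm y : O)) h
        simp only [map_mul, map_inv, MulEquiv.symm_apply_apply, coe_mul, coe_inv, ← ha] at this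
        rw [this]; exact mem_zpowers _
      · have := congrArg (fun y => (e.symm y : O)) h
        simp only [map_mul, map_inv, MulEquiv.symm_apply_apply, coe_mul, coe_inv, ← ha] at this
        rw [this]; exact mul_mem (mem_zpowers _) (mem_zpowers _)
    change k * (a : O) ^ n * k⁻¹ ∈ zpowers (a : O)
    rw [← conj_zpow]
    exact zpow_mem h1 n
  · rw [card_map_of_injective (MulAut.conj g).injective, Nat.card_congr e.toEquiv, Nat.card_perm, Nat.card_fin]
    exact card_normalizer_le h6 h2 (by rw [← ht, pow_orderOf_eq_one]) hc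

theorem closure_eq_normalizer [V.Normal] (h6 : V.index = 6) (h2 : ∀ v ∈ V, v * v = 1) (ht : orderOf t = 3)
    (hc : ∀ v ∈ V, Commute v t → v = 1) {r : O} (hr : orderOf r = 2) (hrt : r * t * r⁻¹ = t * t) :
    closure {t, r} = normalizer (zpowers t : Set O) := by
  refine eq_of_le_of_card_ge ?_ ?_
  · rw [closure_le]
    rintro x (h | h) <;> rw [h]
    · exact le_normalizer (mem_zpowers _)
    · refine mem_normalizer_fintype ?_
      rintro _ ⟨n, rfl⟩
      change r * t ^ n * r⁻¹ ∈ zpowers t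
      rw [← conj_zpow, hrt]
      exact zpow_mem (mul_mem (mem_zpowers _) (mem_zpowers _)) n
  · refine (card_normalizer_le h6 h2 (by rw [← ht, pow_orderOf_eq_one]) hc).trans (Nat.le_of_dvd Nat.card_pos ?_)
    refine Nat.Coprime.mul_dvd_of_dvd_of_dvd (m := 2) (n := 3) (by norm_num) ?_ ?_
    · rw [← hr]; exact orderOf_dvd_natCard _ (subset_closure (by simp))
    · rw [← ht]; exact orderOf_dvd_natCard _ (subset_closure (by simp))

end abstract

/-- the group `D₄(3)` -/
abbrev T : Type := chevD4.group (ZMod 3)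

/-- the triality automorphism -/
noncomputable def tau : MulAut T := (exists_graphD4a (K := ZMod 3)).choose

theorem tau_x {r : ℕ} (hr : r < 24) (t : ZMod 3) :
    tau (xG chevD4 (ZMod 3) r t) = xG chevD4 (ZMod 3) (rhoD4a r) (epsD4a r * t) :=
  (exists_graphD4a (K := ZMod 3)).choose_spec r hr t

/-- a graph automorphism of order two -/
noncomputable def rho : MulAut T := (exists_graphD4s23 (K := ZMod 3)).choose

theorem rho_x {r : ℕ} (hr : r < 24) (t : ZMod 3) :
    rho (xG chevD4 (ZMod 3) r t) = xG chevD4 (ZMod 3) (rhoD4s23 r) (epsD4s23 r * t) :=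
  (exists_graphD4s23 (K := ZMod 3)).choose_spec r hr t

/-- the nodes -/
abbrev N4 : Type := Fin chevD4.rank

/-- node -/
def nd (i : Fin 4) : N4 := i

/-- the permutation of the nodes induced by `tau` -/
def pt : Equiv.Perm N4 := Equiv.swap (nd 0) (nd 3) * Equiv.swap (nd 0) (nd 2)

/-- the permutation of the nodes induced by `rho` -/
def pr : Equiv.Perm N4 := Equiv.swap (nd 2) (nd 3)

theorem par_of {θ : MulAut T} {ρ : ℕ → ℕ} {ε : ℕ → ℤ} {π : Equiv.Perm N4}
    (h : ∀ r < 24, ∀ t, θ (xG chevD4 (ZMod 3) r t) = xG chevD4 (ZMod 3) (ρ r) (ε r * t))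
    (h1 : ∀ i : N4, chevD4.simple i < 24 ∧ chevD4.neg (chevD4.simple i) < 24 ∧
      ρ (chevD4.simple i) = chevD4.simple (π i) ∧ ε (chevD4.simple i) = 1 ∧
      ρ (chevD4.neg (chevD4.simple i)) = chevD4.neg (chevD4.simple (π i)) ∧ ε (chevD4.neg (chevD4.simple i)) = 1) :
    Par θ π 1 fun _ => RingHom.id (ZMod 3) := by
  intro i t
  obtain ⟨a, b, c, d, e, f⟩ := h1 i
  rw [h _ a, h _ b, c, d, e, f]
  simp

theorem par_tau : Par tau pt 1 fun _ => RingHom.id (ZMod 3) :=
  par_of (fun _ hr => tau_x hr) (by decide +kernel)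

theorem par_rho : Par rho pr 1 fun _ => RingHom.id (ZMod 3) :=
  par_of (fun _ hr => rho_x hr) (by decide +kernel)

theorem par_mul {θ θ' : MulAut T} {π π' : Equiv.Perm N4} (h : Par θ π 1 fun _ => RingHom.id (ZMod 3))
    (h' : Par θ' π' 1 fun _ => RingHom.id (ZMod 3)) : Par (θ * θ') (π * π') 1 fun _ => RingHom.id (ZMod 3) := by
  intro i t
  simpa using h.mul h' i t

theorem tau_three : tau ^ 3 = 1 := by
  have := par_mul (par_mul par_tau par_tau) par_tau
  rw [(by decide : pt * pt * pt = 1)] at this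
  rw [pow_three']
  exact this.ext rtOKD4 Par.one

theorem rho_sq : rho ^ 2 = 1 := by
  have := par_mul par_rho par_rho
  rw [(by decide : pr * pr = 1)] at this
  rw [pow_two]
  exact this.ext rtOKD4 Par.one

theorem rho_tau : rho * tau * rho⁻¹ = tau * tau := by
  rw [mul_inv_eq_iff_eq_mul]
  have := par_mul par_rho par_tau
  rw [(by decide : pr * pt = pt * pt * pr)] at this
  exact this.ext rtOKD4 (par_mul (par_mul par_tau par_tau) par_rho)

/-- the outer diagonal automorphisms -/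
noncomputable abbrev VV : Subgroup (Out T) := (piHom (ZMod 3) rtOKD4).ker.map (mkA (ZMod 3) rtOKD4)

instance : VV.Normal := Subgroup.Normal.map inferInstance _ (mkA_surjective rtOKD4)

theorem index_VV : VV.index = 6 := (index_map_ker_piHom rtOKD4).trans (card_range_D4 rtOKD4)

theorem exists_diag {v : Out T} (hv : v ∈ VV) : ∃ c, v = QuotientGroup.mk' (Inn T) (diagHom (ZMod 3) rtOKD4 c) := by
  obtain ⟨θ, hθ, rfl⟩ := hv
  obtain ⟨c, σ, e⟩ := (mem_ker_piHom_iff rtOKD4 symOK_D4).1 hθ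
  refine ⟨c, congrArg (QuotientGroup.mk' (Inn T)) (e.trans ?_)⟩
  have h1 := par_groupEquiv (D := chevD4) σ
  rw [Subsingleton.elim (σ : ZMod 3 →+* ZMod 3) (RingHom.id _)] at h1
  rw [h1.ext rtOKD4 Par.one, mul_one]
  rfl

theorem sq_VV : ∀ v ∈ VV, v * v = 1 := by
  intro v hv
  obtain ⟨c, rfl⟩ := exists_diag hv
  rw [← map_mul, ← map_mul, show c * c = 1 from funext fun i => (by decide : ∀ a : (ZMod 3)ˣ, a * a = 1) _,
    map_one, map_one]

theorem diag_inner (i : N4) (a : (ZMod 3)ˣ) :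
    diagHom (ZMod 3) rtOKD4 (fun j => a ^ chevD4.pairing (chevD4.simple i) (chevD4.simple j)) ∈ Inn T := by
  refine ⟨hG' chevD4 (ZMod 3) (chevD4.simple i) a, Par.ext rtOKD4 ?_ (par_diagOf rtOKD4 _)⟩
  intro j t
  have h1 : ∀ i j : N4, chevD4.simple i < chevD4.nroots ∧
      chevD4.pairing (chevD4.simple i) (chevD4.neg (chevD4.simple j)) =
        -chevD4.pairing (chevD4.simple i) (chevD4.simple j) := by decide +kernel
  rw [MulAut.conj_apply, MulAut.conj_apply, hG'_conj (h1 i j).1 a.ne_zero, hG'_conj (h1 i j).1 a.ne_zero, (h1 i j).2]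
  simp

theorem cent_VV : ∀ v ∈ VV, Commute v (QuotientGroup.mk' (Inn T) tau) → v = 1 := by
  intro v hv hc
  obtain ⟨c, rfl⟩ := exists_diag hv
  have key : ∀ c c' : N4 → (ZMod 3)ˣ, QuotientGroup.mk' (Inn T) (diagHom (ZMod 3) rtOKD4 c) =
      QuotientGroup.mk' (Inn T) (diagHom (ZMod 3) rtOKD4 c') →
      QuotientGroup.mk' (Inn T) (diagHom (ZMod 3) rtOKD4 fun j => c (pt.symm j)) =
      QuotientGroup.mk' (Inn T) (diagHom (ZMod 3) rtOKD4 fun j => c' (pt.symm j)) := by
    intro c c' h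
    have h1 := congrArg (QuotientGroup.mk' (Inn T)) (par_tau.mul_diagOf rtOKD4 c)
    have h2 := congrArg (QuotientGroup.mk' (Inn T)) (par_tau.mul_diagOf rtOKD4 c')
    rw [map_mul, map_mul] at h1 h2
    exact mul_right_cancel (h1.symm.trans ((congrArg _ h).trans h2))
  have h1 : QuotientGroup.mk' (Inn T) (diagHom (ZMod 3) rtOKD4 c) =
      QuotientGroup.mk' (Inn T) (diagHom (ZMod 3) rtOKD4 fun j => c (pt.symm j)) := by
    have h1 := congrArg (QuotientGroup.mk' (Inn T)) (par_tau.mul_diagOf rtOKD4 c)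
    rw [map_mul, map_mul] at h1
    exact mul_right_cancel (hc.eq.trans h1)
  have h2 := h1.trans (key _ _ h1)
  have h3 : QuotientGroup.mk' (Inn T) (diagHom (ZMod 3) rtOKD4
      (c * (fun j => c (pt.symm j)) * fun j => c (pt.symm (pt.symm j)))) = 1 := by
    have h4 : ∀ c : N4 → (ZMod 3)ˣ, (c * (fun j => c (pt.symm j)) * fun j => c (pt.symm (pt.symm j))) =
        (fun j : N4 => (c (nd 0) * c (nd 2) * c (nd 3)) ^ chevD4.pairing (chevD4.simple (nd 1)) (chevD4.simple j)) *
        fun j : N4 => c (nd 1) ^ chevD4.pairing (chevD4.simple (nd 0)) (chevD4.simple j) := by decide +kernel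
    rw [h4, map_mul]
    exact (QuotientGroup.eq_one_iff _).2 (mul_mem (diag_inner _ _) (diag_inner _ _))
  rw [map_mul, map_mul, map_mul, map_mul, ← h1, ← h2, sq_VV _ hv, one_mul] at h3
  exact h3

theorem mk_ne_one {θ : MulAut T} {π : Equiv.Perm N4} (h : Par θ π 1 fun _ => RingHom.id (ZMod 3)) (hπ : π ≠ 1) :
    QuotientGroup.mk' (Inn T) θ ≠ 1 := fun h1 =>
  hπ ((Par.piHom_eq rtOKD4 (θ := ⟨θ, h.mem_AA rtOKD4⟩) h).symm.trans (ker_mkA_le rtOKD4 h1))

theorem orderOf_tau : orderOf (QuotientGroup.mk' (Inn T) tau) = 3 :=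
  haveI : Fact (Nat.Prime 3) := ⟨Nat.prime_three⟩
  orderOf_eq_prime (by rw [← map_pow, tau_three, map_one]) (mk_ne_one par_tau (by decide))

theorem orderOf_rho : orderOf (QuotientGroup.mk' (Inn T) rho) = 2 :=
  orderOf_eq_prime (by rw [← map_pow, rho_sq, map_one]) (mk_ne_one par_rho (by decide))

/-- the group `D₄(3) : S₃` -/
noncomputable def Gam : Subgroup (MulAut T) := closure {tau, rho} ⊔ Inn T

theorem exists_conj_Gam {H : Subgroup (MulAut T)} (hI : Inn T ≤ H)
    (e : H.map (QuotientGroup.mk' (Inn T)) ≃* Equiv.Perm (Fin 3)) :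
    ∃ θ : MulAut T, H.map (MulAut.conj θ).toMonoidHom = Gam := by
  obtain ⟨g, hg⟩ := exists_conj_normalizer index_VV sq_VV orderOf_tau cent_VV e
  obtain ⟨θ, rfl⟩ := QuotientGroup.mk'_surjective _ g
  rw [← closure_eq_normalizer index_VV sq_VV orderOf_tau cent_VV orderOf_rho
    (by rw [← map_inv, ← map_mul, ← map_mul, rho_tau, map_mul]), ← Set.image_pair, ← MonoidHom.map_closure] at hg
  refine ⟨θ, ?_⟩
  have h1 := congrArg (comap (QuotientGroup.mk' (Inn T))) hg
  rw [map_map, show (MulAut.conj (QuotientGroup.mk' (Inn T) θ)).toMonoidHom.comp (QuotientGroup.mk' (Inn T)) =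
    (QuotientGroup.mk' (Inn T)).comp (MulAut.conj θ).toMonoidHom from MonoidHom.ext fun x => by simp,
    ← map_map, comap_map_eq, comap_map_eq, QuotientGroup.ker_mk', sup_eq_left.2] at h1
  · exact h1
  · intro x hx
    exact ⟨θ⁻¹ * x * θ⁻¹⁻¹, hI ((innNormal T).conj_mem x hx _), by simp [mul_assoc]⟩

theorem center_T : center T = ⊥ := by
  have : IsSimpleGroup T := RGD.isSimpleGroup_D4
  refine (Subgroup.Normal.eq_bot_or_eq_top (H := center T) inferInstance).resolve_right fun h => ?_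
  have h1 := nG'_conj (D := chevD4) (F := ZMod 3) (r := 18) (s := 18) (by decide) (by decide) one_ne_zero 1
  rw [mem_center_iff.1 (h.ge (mem_top (xG chevD4 (ZMod 3) 18 1))) (nG' chevD4 (ZMod 3) 18 1),
    mul_inv_cancel_right] at h1
  exact absurd (xG_root_eq rtOKD4 (by decide) (by decide +kernel) one_ne_zero h1) (by decide +kernel)

theorem exists_equiv_of {G X : Type*} [Group G] [Group X] {L : Subgroup G} [L.Normal]
    (hC : centralizer (L : Set G) ≤ L) (e1 : L ≃* X) (hZ : center X = ⊥) {Y : Type*} [Group Y] (q : G ⧸ L ≃* Y)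
    {Γ : Subgroup (MulAut X)} (hΓ : ∀ H : Subgroup (MulAut X), Inn X ≤ H →
      (H.map (QuotientGroup.mk' (Inn X)) ≃* Y) → ∃ θ : MulAut X, H.map (MulAut.conj θ).toMonoidHom = Γ) :
    ∃ (e : L ≃* X) (φ : G ≃* Γ), ∀ (g : G) (x : L), e (MulAut.conjNormal g x) = (φ g).1 (e x) := by
  let ψ : G →* MulAut X := (MulAut.congr e1).toMonoidHom.comp MulAut.conjNormal
  have hψ : ∀ g x, ψ g (e1 x) = e1 (MulAut.conjNormal g x) := fun g x => by simp [ψ]
  have hl : ∀ x : L, ψ x = MulAut.conj (e1 x) := fun x => by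
    ext1 y
    obtain ⟨y, rfl⟩ := e1.surjective y
    rw [hψ, MulAut.conj_apply, ← map_inv, ← map_mul, ← map_mul]
    rfl
  have hi : Function.Injective ψ := by
    rw [injective_iff_map_eq_one]
    intro g hg
    have h1 : g ∈ L := by
      refine hC fun x hx => ?_
      have := hψ g ⟨x, hx⟩
      rw [hg, MulAut.one_apply] at this
      have h2 : x = g * x * g⁻¹ := congrArg Subtype.val (e1.injective this)
      exact (mul_inv_eq_iff_eq_mul.1 h2.symm).symm
    have h2 : e1 ⟨g, h1⟩ ∈ center X := mem_center_iff.2 fun y => by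
      have := congrArg (fun θ : MulAut X => θ y) ((hl ⟨g, h1⟩).symm.trans hg)
      exact (mul_inv_eq_iff_eq_mul.1 this).symm
    rw [hZ, mem_bot, map_eq_one_iff _ e1.injective] at h2
    exact congrArg Subtype.val h2
  have hk : ((QuotientGroup.mk' (Inn X)).comp ψ).ker = L := by
    ext g
    rw [MonoidHom.mem_ker, MonoidHom.comp_apply, QuotientGroup.mk'_apply, QuotientGroup.eq_one_iff]
    constructor
    · rintro ⟨y, hy⟩
      obtain ⟨y, rfl⟩ := e1.surjective y
      rw [← hi ((hl y).trans hy)]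
      exact y.2
    · exact fun h => ⟨_, (hl ⟨g, h⟩).symm⟩
  obtain ⟨θ, hθ⟩ := hΓ ψ.range (by
      rintro _ ⟨y, rfl⟩
      obtain ⟨y, rfl⟩ := e1.surjective y
      exact ⟨y, hl y⟩)
    ((MulEquiv.subgroupCongr (MonoidHom.range_comp _ _).symm).trans
      ((QuotientGroup.quotientKerEquivRange _).symm.trans ((QuotientGroup.quotientMulEquivOfEq hk).trans q)))
  refine ⟨e1.trans θ, ((MonoidHom.ofInjective hi).trans ((MulAut.conj θ).subgroupMap _)).trans
    (MulEquiv.subgroupCongr hθ), fun g x => ?_⟩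
  change θ (e1 _) = (θ * ψ g * θ⁻¹) (θ (e1 x))
  rw [← hψ]
  simp

/-- a group with generalized Fitting subgroup `PΩ₈⁺(3)` and quotient `S₃` is `D₄(3) : S₃` -/
theorem exists_equiv {G : Type*} [Group G] [Finite G] {L : Subgroup G} (hL : L = generalizedFittingSubgroup G)
    (hF : Nonempty (L ≃* POmega (ZMod 3) (quadFormPlus 4 (ZMod 3)))) [L.Normal]
    (hq : Nonempty (G ⧸ L ≃* Equiv.Perm (Fin 3))) :
    ∃ (e : L ≃* T) (φ : G ≃* Gam), ∀ (g : G) (x : L), e (MulAut.conjNormal g x) = (φ g).1 (e x) :=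
  @exists_equiv_of G T _ (Subgroup.toGroup _) L _ (by rw [hL]; exact Comp.centralizer_fstar_le)
    (hF.some.trans (RepChk.d4Iso (ZMod 3)).symm) center_T _ _ hq.some Gam fun _ => exists_conj_Gam

end CfsgLib.O8Tri
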